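import Cfsg.Agent.Lib.Char.Brauer
import Cfsg.Agent.Lib.Char.RepEquiv
import Mathlib.Tactic

/-!
# Realizing complex representations over a field containing the exponent-th roots of unity

For a subfield-like `K` with `Algebra K ℂ`:
* `kch σ`: the `ℂ`-valued character of a `K`-representation.
* `cplx b σ`: the matrix-form complexification.
* Irreducible `K`-characters are pairwise orthogonal.
* `mem_kirr_of_irr`: if all induced linear characters are `K`-characters, each irreducible complex
  character is a `K`-irreducible character (Brauer).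
-/

set_option autoImplicit false

namespace Cfsg.Agent.Lib.CycloReal

open Cfsg Module
open Cfsg.Agent.Lib.Char.Basic Cfsg.Agent.Lib.Char.Decomp Cfsg.Agent.Lib.Char.Ortho
open Cfsg.Agent.Lib.Char.Induced Cfsg.Agent.Lib.Char.IndRep Cfsg.Agent.Lib.Char.IndSpan
open Cfsg.Agent.Lib.Char.GenLattice Cfsg.Agent.Lib.Char.Brauer Cfsg.Agent.Lib.Char.Complete

universe u

variable {G : Type u} [Group G]
variable {K : Type} [Field K] [Algebra K ℂ]

/-- The `ℂ`-valued character of a `K`-representation. -/
noncomputable def kch {W : Type*} [AddCommGroup W] [Module K W] (σ : Representation K G W) : G → ℂ :=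
  fun g => algebraMap K ℂ (σ.character g)

/-- The matrix-form complexification of a `K`-representation. -/
noncomputable def cplx {W : Type} [AddCommGroup W] [Module K W] {d : ℕ} (b : Basis (Fin d) K W)
    (σ : Representation K G W) : Representation ℂ G (Fin d → ℂ) where
  toFun g := Matrix.toLin' ((LinearMap.toMatrix b b (σ g)).map (algebraMap K ℂ))
  map_one' := by
    rw [map_one]
    have : LinearMap.toMatrix b b (1 : W →ₗ[K] W) = 1 := LinearMap.toMatrix_one b
    rw [this, Matrix.map_one _ (map_zero _) (map_one _)]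
    exact Matrix.toLin'_one
  map_mul' x y := by
    rw [map_mul]
    have : LinearMap.toMatrix b b (σ x * σ y) =
      LinearMap.toMatrix b b (σ x) * LinearMap.toMatrix b b (σ y) := LinearMap.toMatrix_mul b _ _
    rw [this, Matrix.map_mul, Matrix.toLin'_mul]
    rfl

theorem character_cplx {W : Type} [AddCommGroup W] [Module K W] [FiniteDimensional K W] {d : ℕ}
    (b : Basis (Fin d) K W) (σ : Representation K G W) :
    (cplx b σ).character = kch σ := by
  funext g
  change LinearMap.trace ℂ _ (Matrix.toLin' _) = algebraMap K ℂ (LinearMap.trace K W (σ g))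
  rw [Matrix.trace_toLin'_eq, LinearMap.trace_eq_matrix_trace K b]
  simp [Matrix.trace, map_sum]

theorem entry_cplx {W : Type} [AddCommGroup W] [Module K W] {d : ℕ} (b : Basis (Fin d) K W)
    (σ : Representation K G W) (g : G) (i j : Fin d) :
    LinearMap.toMatrix' (cplx b σ g) i j = algebraMap K ℂ (LinearMap.toMatrix b b (σ g) i j) := by
  change LinearMap.toMatrix' (Matrix.toLin' _) i j = _
  rw [LinearMap.toMatrix'_toLin']
  rfl

theorem kch_one {W : Type} [AddCommGroup W] [Module K W] [FiniteDimensional K W]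
    (σ : Representation K G W) : kch σ 1 = (finrank K W : ℂ) := by
  simp [kch, Representation.char_one]

/-- `K`-characters. -/
def KChar (K : Type) [Field K] [Algebra K ℂ] (G : Type u) [Group G] : Set (G → ℂ) :=
  {f | ∃ (W : Type) (_ : AddCommGroup W) (_ : Module K W) (_ : FiniteDimensional K W)
    (σ : Representation K G W), f = kch σ}

/-- Irreducible `K`-characters. -/
def KIrr (K : Type) [Field K] [Algebra K ℂ] (G : Type u) [Group G] : Set (G → ℂ) :=
  {f | ∃ (W : Type) (_ : AddCommGroup W) (_ : Module K W) (_ : FiniteDimensional K W)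
    (σ : Representation K G W), σ.IsIrreducible ∧ f = kch σ}

theorem kIrr_subset : KIrr K G ⊆ KChar K G := by
  rintro f ⟨W, _, _, _, σ, -, rfl⟩
  exact ⟨W, ‹_›, ‹_›, ‹_›, σ, rfl⟩

theorem zero_mem_kChar : (0 : G → ℂ) ∈ KChar K G := by
  refine ⟨PUnit, inferInstance, inferInstance, inferInstance, 1, ?_⟩
  funext g
  have : Representation.character (1 : Representation K G PUnit) g = 0 := by
    have h : Subsingleton (Module.End K PUnit) := inferInstance
    rw [Representation.character, Subsingleton.elim ((1 : Representation K G PUnit) g) 0, map_zero]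
  simp [kch, this]

theorem add_mem_kChar {f f' : G → ℂ} (h : f ∈ KChar K G) (h' : f' ∈ KChar K G) :
    f + f' ∈ KChar K G := by
  obtain ⟨W, _, _, _, σ, rfl⟩ := h
  obtain ⟨W', _, _, _, σ', rfl⟩ := h'
  refine ⟨W × W', inferInstance, inferInstance, inferInstance, σ.prod σ', ?_⟩
  funext g
  have : (σ.prod σ').character g = σ.character g + σ'.character g :=
    LinearMap.trace_prodMap' (σ g) (σ' g)
  simp [kch, this, map_add]

/-- A `K`-character in any universe is a `K`-character. -/
theorem kch_mem_kChar {W : Type*} [AddCommGroup W] [Module K W] [FiniteDimensional K W]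
    (σ : Representation K G W) : kch σ ∈ KChar K G := by
  let e : W ≃ₗ[K] (Fin (finrank K W) → K) := (Module.finBasis K W).equivFun
  let σ' : Representation K G (Fin (finrank K W) → K) :=
    { toFun := fun g => e.conj (σ g)
      map_one' := by
        ext v
        simp [LinearEquiv.conj_apply]
      map_mul' := fun x y => by
        ext v
        simp [LinearEquiv.conj_apply] }
  refine ⟨_, inferInstance, inferInstance, inferInstance, σ', ?_⟩
  funext g
  have : σ'.character g = σ.character g := LinearMap.trace_conj' (σ g) e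
  simp [kch, this]

/-- Every `K`-character is a sum of irreducible ones. -/
theorem kch_mem_closure [Finite G] [CharZero K] (W : Type) [AddCommGroup W] [Module K W]
    [FiniteDimensional K W] (σ : Representation K G W) :
    kch σ ∈ AddSubmonoid.closure (KIrr K G) := by
  have hne : NeZero (Nat.card G : K) := ⟨Nat.cast_ne_zero.mpr Nat.card_pos.ne'⟩
  induction hn : finrank K W using Nat.strong_induction_on generalizing W with
  | _ n ih =>
    by_cases hsub : Subsingleton W
    · have : kch σ = 0 := by
        funext g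
        have h : Subsingleton (Module.End K W) := inferInstance
        simp [kch, Representation.character, Subsingleton.elim (σ g) 0]
      rw [this]
      exact zero_mem _
    rw [not_subsingleton_iff_nontrivial] at hsub
    by_cases hsimple : ∀ U : Subrepresentation σ, U = ⊥ ∨ U = ⊤
    · refine AddSubmonoid.subset_closure ⟨W, ‹_›, ‹_›, ‹_›, σ, ?_, rfl⟩
      have hnt : Nontrivial (Subrepresentation σ) := by
        refine ⟨⊥, ⊤, fun h => ?_⟩
        have h2 : (⊥ : Submodule K W) = ⊤ := congrArg Subrepresentation.toSubmodule h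
        exact bot_ne_top h2
      exact { eq_bot_or_eq_top := hsimple }
    · push Not at hsimple
      obtain ⟨U, hU1, hU2⟩ := hsimple
      obtain ⟨U', hU'⟩ := exists_isCompl U
      have hcompl : IsCompl U.toSubmodule U'.toSubmodule := by
        constructor
        · rw [disjoint_iff]
          exact congrArg Subrepresentation.toSubmodule hU'.inf_eq_bot
        · rw [codisjoint_iff]
          exact congrArg Subrepresentation.toSubmodule hU'.sup_eq_top
      have hadd : finrank K U.toSubmodule + finrank K U'.toSubmodule = finrank K W :=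
        Submodule.finrank_add_eq_of_isCompl hcompl
      have hne_top : ∀ {X : Subrepresentation σ}, X ≠ ⊤ → finrank K X.toSubmodule < n := by
        intro X hX
        rw [← hn]
        apply Submodule.finrank_lt
        intro h'
        apply hX
        apply Subrepresentation.toSubmodule_injective
        exact h'
      have h1 : finrank K U.toSubmodule < n := hne_top hU2
      have hU'top : U' ≠ ⊤ := by
        rintro rfl
        apply hU1
        have := hU'.inf_eq_bot
        simpa using this
      have h2 : finrank K U'.toSubmodule < n := hne_top hU'top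
      have e : (U.toRepresentation.prod U'.toRepresentation).Equiv σ :=
        Representation.Equiv.mk (Submodule.prodEquivOfIsCompl _ _ hcompl)
          (fun g => by
            ext ⟨x, y⟩ <;>
            simp [Representation.prod, Subrepresentation.toRepresentation])
      have hsum : kch σ = kch U.toRepresentation + kch U'.toRepresentation := by
        funext g
        have h3 := congrFun (Representation.char_iso e) g
        have h4 : (U.toRepresentation.prod U'.toRepresentation).character g
            = U.toRepresentation.character g + U'.toRepresentation.character g :=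
          LinearMap.trace_prodMap' _ _
        simp only [kch, Pi.add_apply]
        rw [← h3, h4, map_add]
      rw [hsum]
      exact add_mem (ih _ h1 _ _ rfl) (ih _ h2 _ _ rfl)

/-- The symmetric pairing. -/
noncomputable def pair [Fintype G] (f f' : G → ℂ) : ℂ :=
  (Nat.card G : ℂ)⁻¹ * ∑ g : G, f' g * f g⁻¹

theorem pair_kch [Fintype G] [CharZero K] {W W' : Type} [AddCommGroup W] [Module K W]
    [FiniteDimensional K W] [AddCommGroup W'] [Module K W'] [FiniteDimensional K W']
    (σ : Representation K G W) (σ' : Representation K G W') :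
    pair (kch σ) (kch σ') = (finrank K (Representation.IntertwiningMap σ σ') : ℂ) := by
  have hne : (Nat.card G : K) ≠ 0 := Nat.cast_ne_zero.mpr Nat.card_pos.ne'
  let _ : Invertible (Nat.card G : K) := invertibleOfNonzero hne
  have h := Representation.card_inv_mul_sum_char_mul_char_eq_finrank σ σ'
  have h2 := congrArg (algebraMap K ℂ) h
  rw [map_mul, map_inv₀, map_natCast, map_sum, map_natCast] at h2
  rw [← h2]
  simp [pair, kch]

theorem pair_eq_zero_of_ne [Fintype G] [CharZero K] {f f' : G → ℂ} (hf : f ∈ KIrr K G)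
    (hf' : f' ∈ KIrr K G) (hne : f ≠ f') : pair f f' = 0 := by
  obtain ⟨W, _, _, _, σ, hσ, rfl⟩ := hf
  obtain ⟨W', _, _, _, σ', hσ', rfl⟩ := hf'
  rw [pair_kch]
  have : IsEmpty (Representation.Equiv σ σ') := ⟨fun e => hne (by
    funext g
    simp [kch, congrFun (Representation.char_iso e) g])⟩
  have h : Subsingleton (Representation.IntertwiningMap σ σ') := inferInstance
  rw [finrank_zero_of_subsingleton]
  simp

theorem exists_pair_self [Fintype G] [CharZero K] {f : G → ℂ} (hf : f ∈ KIrr K G) :
    ∃ m : ℕ, 0 < m ∧ pair f f = (m : ℂ) := by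
  obtain ⟨W, _, _, _, σ, hσ, rfl⟩ := hf
  refine ⟨_, ?_, pair_kch σ σ⟩
  have hW : Nontrivial W := by
    by_contra hW
    rw [not_nontrivial_iff_subsingleton] at hW
    have : (⊥ : Subrepresentation σ) = ⊤ := by
      apply Subrepresentation.toSubmodule_injective
      exact Subsingleton.elim _ _
    exact bot_ne_top this
  have hfin : Module.Finite K (Representation.IntertwiningMap σ σ) :=
    Module.Finite.equiv (Representation.invariantsEquivIntertwiningMap σ σ)
  have hnt : Nontrivial (Representation.IntertwiningMap σ σ) := by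
    refine ⟨Representation.IntertwiningMap.id σ, 0, fun h => ?_⟩
    obtain ⟨w, hw⟩ := exists_ne (0 : W)
    apply hw
    exact congrArg (fun F : Representation.IntertwiningMap σ σ => F w) h
  exact Module.finrank_pos

theorem sum_zsmul_apply {ι : Type*} (s : Finset ι) (c : ι → ℤ) (F : ι → G → ℂ) (g : G) :
    (∑ i ∈ s, c i • F i) g = ∑ i ∈ s, (c i : ℂ) * F i g := by
  rw [Finset.sum_apply]
  refine Finset.sum_congr rfl fun i _ => ?_
  rw [Pi.smul_apply, zsmul_eq_mul]

theorem pair_sum_left [Fintype G] {ι : Type*} (s : Finset ι) (c : ι → ℤ) (F : ι → G → ℂ)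
    (f' : G → ℂ) :
    pair (∑ i ∈ s, c i • F i) f' = ∑ i ∈ s, (c i : ℂ) * pair (F i) f' := by
  simp only [pair, sum_zsmul_apply, Finset.mul_sum]
  rw [Finset.sum_comm]
  refine Finset.sum_congr rfl fun i _ => Finset.sum_congr rfl fun g _ => ?_
  ring

theorem pair_sum_right [Fintype G] {ι : Type*} (s : Finset ι) (c : ι → ℤ) (F : ι → G → ℂ)
    (f : G → ℂ) :
    pair f (∑ i ∈ s, c i • F i) = ∑ i ∈ s, (c i : ℂ) * pair f (F i) := by
  simp only [pair, sum_zsmul_apply, Finset.mul_sum, Finset.sum_mul]
  rw [Finset.sum_comm]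
  refine Finset.sum_congr rfl fun i _ => Finset.sum_congr rfl fun g _ => ?_
  ring

theorem pair_self_of_isIrr [Fintype G] {χ : G → ℂ} (hχ : IsIrrCharacter G χ) : pair χ χ = 1 := by
  rw [← classInner_self_of_isIrr hχ, classInner_def, pair]
  congr 1
  refine Finset.sum_congr rfl fun g _ => ?_
  rw [char_inv_eq_conj (isCharacter_of_isIrrCharacter hχ)]

/-- **Brauer's realization**: if all functions induced from linear characters of subgroups are
`K`-characters, then each irreducible complex character is an irreducible `K`-character. -/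
theorem mem_kIrr_of_irr [Fintype G] [CharZero K]
    (hind : ∀ (E : Subgroup G) (lam : E →* ℂˣ), indFun E (fun e => (lam e : ℂ)) ∈ KChar K G)
    {χ : G → ℂ} (hχ : IsIrrCharacter G χ) : χ ∈ KIrr K G := by
  classical
  have h1 : χ ∈ homSpan (Elem (G := G)) := mem_homSpan_of_isGenChar (isGenChar_of_isIrr hχ)
  have h2 : homSpan (Elem (G := G)) ≤ AddSubgroup.closure (KIrr K G) := by
    rw [homSpan, AddSubgroup.closure_le]
    rintro _ ⟨E, lam, -, rfl⟩
    obtain ⟨W, _, _, _, σ, hσ⟩ := hind E lam
    rw [hσ]
    exact (AddSubmonoid.closure_le.mpr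
      (AddSubgroup.subset_closure : KIrr K G ⊆ (AddSubgroup.closure (KIrr K G) : Set (G → ℂ)))
      : AddSubmonoid.closure (KIrr K G) ≤ (AddSubgroup.closure (KIrr K G)).toAddSubmonoid)
      (kch_mem_closure W σ)
  have h3 : χ ∈ Submodule.span ℤ (KIrr K G) := by
    have h4 := h2 h1
    rwa [← Submodule.span_int_eq_addSubgroupClosure] at h4
  obtain ⟨c, hc, hsum⟩ := Submodule.mem_span_set.mp h3
  rw [Finsupp.sum] at hsum
  set S := c.support with hS
  have hSm : ∀ ψ ∈ S, ψ ∈ KIrr K G := fun ψ hψ => hc hψ
  choose! m hm0 hm using fun ψ (hψ : ψ ∈ KIrr K G) => exists_pair_self hψ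
  -- coefficient formula
  have hcoef : ∀ ψ ∈ S, pair χ ψ = (c ψ : ℂ) * (m ψ : ℂ) := by
    intro ψ hψ
    rw [← hsum, pair_sum_left, Finset.sum_eq_single ψ]
    · rw [hm ψ (hSm ψ hψ)]
    · intro ψ' hψ' hne
      rw [pair_eq_zero_of_ne (hSm ψ' hψ') (hSm ψ hψ) hne, mul_zero]
    · intro h
      exact absurd hψ h
  have hself : pair χ χ = ∑ ψ ∈ S, (c ψ : ℂ) * ((c ψ : ℂ) * (m ψ : ℂ)) := by
    calc pair χ χ = pair χ (∑ a ∈ S, c a • a) := by rw [hsum]
      _ = ∑ a ∈ S, (c a : ℂ) * pair χ a := pair_sum_right S c (fun a => a) χ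
      _ = _ := Finset.sum_congr rfl fun ψ hψ => by rw [hcoef ψ hψ]
  rw [pair_self_of_isIrr hχ] at hself
  have hZ : (∑ ψ ∈ S, (c ψ) * ((c ψ) * (m ψ : ℤ))) = 1 := by
    have : ((∑ ψ ∈ S, (c ψ) * ((c ψ) * (m ψ : ℤ)) : ℤ) : ℂ) = ((1 : ℤ) : ℂ) := by
      push_cast
      exact hself.symm
    exact_mod_cast this
  have hpos : ∀ ψ ∈ S, 1 ≤ (c ψ) * ((c ψ) * (m ψ : ℤ)) := by
    intro ψ hψ
    have hc0 : c ψ ≠ 0 := Finsupp.mem_support_iff.mp hψ
    have hm1 : (1 : ℤ) ≤ m ψ := by exact_mod_cast hm0 ψ (hSm ψ hψ)
    have hsq : 1 ≤ (c ψ) * (c ψ) := by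
      nlinarith [Int.one_le_abs hc0, abs_mul_abs_self (c ψ)]
    nlinarith
  have hcard : S.card ≤ 1 := by
    have := Finset.card_nsmul_le_sum S (fun ψ => (c ψ) * ((c ψ) * (m ψ : ℤ))) 1 hpos
    rw [hZ] at this
    simpa using this
  have hSne : S.Nonempty := by
    by_contra hemp
    rw [Finset.not_nonempty_iff_eq_empty] at hemp
    rw [hemp] at hZ
    simp at hZ
  obtain ⟨ψ₀, hψ₀⟩ := Finset.card_eq_one.mp (le_antisymm hcard (Finset.card_pos.mpr hSne))
  rw [hψ₀] at hsum hZ
  simp only [Finset.sum_singleton] at hsum hZ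
  have hψ₀m : ψ₀ ∈ KIrr K G := hSm ψ₀ (by rw [hψ₀]; exact Finset.mem_singleton_self _)
  have hcc : c ψ₀ = 1 ∨ c ψ₀ = -1 := by
    rcases Int.eq_one_or_neg_one_of_mul_eq_one hZ with h | h
    · exact Or.inl h
    · exact Or.inr h
  -- sign
  obtain ⟨n, hn⟩ := exists_pos_deg_of_isIrr hχ
  obtain ⟨W, _, _, _, σ, hσ, hψσ⟩ := hψ₀m
  have hWn : Nontrivial W := by
    by_contra hW
    rw [not_nontrivial_iff_subsingleton] at hW
    have : (⊥ : Subrepresentation σ) = ⊤ := by
      apply Subrepresentation.toSubmodule_injective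
      exact Subsingleton.elim _ _
    exact bot_ne_top this
  rcases hcc with h | h
  · have : χ = ψ₀ := by
      rw [← hsum, h, one_smul]
    rw [this]
    exact ⟨W, ‹_›, ‹_›, ‹_›, σ, hσ, hψσ⟩
  · exfalso
    have h1 := congrFun hsum 1
    rw [h] at h1
    have h5 : finrank K W > 0 := Module.finrank_pos
    simp only [Pi.smul_apply, hψσ, kch_one, neg_smul, one_smul] at h1
    obtain ⟨hn0, hn1⟩ := hn
    rw [hn1] at h1
    have h6 : ((n : ℤ) : ℂ) = ((-(finrank K W : ℤ) : ℤ) : ℂ) := by
      push_cast
      exact h1.symm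
    have h7 : (n : ℤ) = -(finrank K W : ℤ) := by exact_mod_cast h6
    omega

end Cfsg.Agent.Lib.CycloReal
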