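import Cfsg.Agent.Lib.CycloReal.Basic

/-!
# Brauer's theorem: realization over `ℚ(ζ_m)`, `m` the exponent
-/

set_option autoImplicit false

namespace Cfsg.Agent.Lib.CycloReal.Main

open Cfsg Module
open Cfsg.Agent.Lib.Char.Basic Cfsg.Agent.Lib.Char.Decomp Cfsg.Agent.Lib.Char.Ortho
open Cfsg.Agent.Lib.Char.Induced Cfsg.Agent.Lib.Char.IndRep
open Cfsg.Agent.Lib.CycloReal

universe u

variable {G : Type u} [Group G]
variable {K : Type} [Field K] [Algebra K ℂ]

/-- The induced representation of a `K`-valued hom. -/
noncomputable def indK {E : Subgroup G} (mu : E →* K) : Representation K G (G ⧸ E → K) where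
  toFun g :=
    { toFun := fun f q => mu (cocycle E g q) * f (g⁻¹ • q)
      map_add' := by intro f f'; funext q; simp [mul_add]
      map_smul' := by intro c f; funext q; simp; ring }
  map_one' := by
    ext f q
    simp [cocycle_one]
  map_mul' g g' := by
    apply LinearMap.ext
    intro f
    funext q
    simp only [LinearMap.coe_mk, AddHom.coe_mk, Module.End.mul_apply, cocycle_mul, map_mul,
      mul_inv_rev, mul_smul]
    ring

theorem trace_pi_apply {ι : Type*} [Fintype ι] [DecidableEq ι] (A : (ι → K) →ₗ[K] (ι → K)) :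
    LinearMap.trace K (ι → K) A = ∑ i, A (Pi.single i 1) i := by
  rw [LinearMap.trace_eq_matrix_trace K (Pi.basisFun K ι), Matrix.trace]
  refine Finset.sum_congr rfl fun i _ => ?_
  simp [LinearMap.toMatrix_apply]

theorem kch_indK [Fintype G] {E : Subgroup G} (mu : E →* K) :
    kch (indK mu) = indFun E (fun e => algebraMap K ℂ (mu e)) := by
  classical
  have : Fintype (G ⧸ E) := Fintype.ofFinite _
  funext g
  rw [indFun_eq_sum_transversal E _ (fun x y => by
      have : mu (y * x * y⁻¹) = mu x := by
        rw [map_mul, map_mul, mul_comm (mu y), mul_assoc, ← map_mul, mul_inv_cancel, map_one,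
          mul_one]
      simp only [this]) (fun q => Quotient.out q)
    (fun q => QuotientGroup.out_eq' q)]
  simp only [kch, Representation.character]
  rw [trace_pi_apply, map_sum]
  refine Finset.sum_congr rfl fun q _ => ?_
  by_cases hq : g⁻¹ • q = q
  · have hmem := (mem_iff_smul_eq g q).mpr hq
    rw [extendByZero_of_mem E _ hmem]
    change algebraMap K ℂ (mu (cocycle E g q) * (Pi.single q 1 : G ⧸ E → K) (g⁻¹ • q)) = _
    rw [hq, Pi.single_eq_same, mul_one]
    congr 2
    ext
    simp [hq]
  · have hmem : (Quotient.out q : G)⁻¹ * g * (Quotient.out q : G) ∉ E :=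
      fun h => hq ((mem_iff_smul_eq g q).mp h)
    rw [extendByZero_of_not_mem E _ hmem]
    change algebraMap K ℂ (mu (cocycle E g q) * (Pi.single q 1 : G ⧸ E → K) (g⁻¹ • q)) = _
    rw [Pi.single_eq_of_ne hq, mul_zero, map_zero]

/-- Final form, over a `K` with `Algebra K ℂ` containing all the needed roots of unity. -/
theorem exists_form [Fintype G] [CharZero K]
    (hroots : ∀ z : ℂ, z ^ Monoid.exponent G = 1 → z ∈ (algebraMap K ℂ).range)
    (n : ℕ) (ρ : Representation ℂ G (Fin n → ℂ)) :
    ∃ σ : Representation ℂ G (Fin n → ℂ), Nonempty (ρ.Equiv σ) ∧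
      ∀ g : G, ∀ i j : Fin n, LinearMap.toMatrix' (σ g) i j ∈ (algebraMap K ℂ).range := by
  classical
  have hinj : Function.Injective (algebraMap K ℂ) := (algebraMap K ℂ).injective
  have hind : ∀ (E : Subgroup G) (lam : E →* ℂˣ),
      indFun E (fun e => (lam e : ℂ)) ∈ KChar K G := by
    intro E lam
    have hval : ∀ e : E, ((lam e : ℂˣ) : ℂ) ∈ (algebraMap K ℂ).range := by
      intro e
      apply hroots
      have h1 : (e : G) ^ Monoid.exponent G = 1 := Monoid.pow_exponent_eq_one _
      have h2 : e ^ Monoid.exponent G = 1 := Subtype.ext (by simpa using h1)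
      have h3 := congrArg (fun x => ((lam x : ℂˣ) : ℂ)) h2
      simpa using h3
    choose f hf using hval
    let mu : E →* K :=
      { toFun := f
        map_one' := by
          apply hinj
          rw [hf]
          simp
        map_mul' := fun x y => by
          apply hinj
          rw [map_mul, hf, hf, hf]
          simp }
    have h5 : (fun e : E => ((lam e : ℂˣ) : ℂ)) = fun e => algebraMap K ℂ (mu e) := by
      funext e
      exact (hf e).symm
    rw [h5, ← kch_indK]
    exact kch_mem_kChar _
  have hirr : ∀ χ, IsIrrCharacter G χ → χ ∈ KChar K G := fun χ hχ =>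
    kIrr_subset (mem_kIrr_of_irr hind hχ)
  let _ : Fintype (IrrCharacter G) := by
    have := finite_irrCharacter (G := G)
    exact Fintype.ofFinite _
  obtain ⟨m, hm⟩ := exists_nat_combination (isCharacter_of_rep ρ)
  have hsum : ρ.character ∈ KChar K G := by
    rw [hm]
    have hnsmul : ∀ (k : ℕ) (f : G → ℂ), f ∈ KChar K G → k • f ∈ KChar K G := by
      intro k f hf
      induction k with
      | zero => simpa using zero_mem_kChar
      | succ k ih =>
        rw [succ_nsmul]
        exact add_mem_kChar ih hf
    refine Finset.sum_induction _ (· ∈ KChar K G) (fun a b ha hb => add_mem_kChar ha hb)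
      zero_mem_kChar ?_
    intro i _
    exact hnsmul _ _ (hirr _ i.2)
  obtain ⟨W, _, _, _, σ₀, h₀⟩ := hsum
  have hd : finrank K W = n := by
    have h1 := congrFun h₀ 1
    rw [Representation.char_one, kch_one] at h1
    have h2 : finrank ℂ (Fin n → ℂ) = n := by simp
    rw [h2] at h1
    exact_mod_cast h1.symm
  let b : Basis (Fin n) K W := Module.finBasisOfFinrankEq K W hd
  refine ⟨cplx b σ₀, ?_, ?_⟩
  · apply Cfsg.Agent.Lib.Char.RepEquiv.nonempty_equiv_of_character_eq
    rw [character_cplx, h₀]
  · intro g i j
    rw [entry_cplx]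
    exact ⟨_, rfl⟩

end Cfsg.Agent.Lib.CycloReal.Main
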